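import Cfsg.Agent.H687.BR.CntPar
import Cfsg.Agent.H116.RatB0.StRow

/-!
# The number `cnt P (G ⧸ P_J)` is not `p - 1` (helper116)

If `cnt P (G ⧸ H) = p - 1`, then `N_H(P) = C_H(P)` and `H` has a normal `p`-complement (Burnside). A parabolic subgroup of
order divisible by `p` is generated by elements of order prime to `p` if `p ∤ |B|`.
-/

set_option autoImplicit false
set_option linter.unusedSectionVars false

open Subgroup

namespace Cfsg.Agent.H116.RatH

open Cfsg.Agent.H145.BR (cnt)
open Cfsg.Agent.H687.BR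

universe u v

/-- a group generated by elements of order prime to `p` has no normal `p`-complement -/
theorem not_norm_le_cent {H : Type u} [Group H] [Finite H] {p : ℕ} [hp : Fact p.Prime] (P : Sylow p H)
    (hd : p ∣ Nat.card H) (S : Set H) (hS : closure S = ⊤) (hSp : ∀ x ∈ S, ¬ p ∣ orderOf x) :
    ¬ normalizer ((P : Subgroup H) : Set H) ≤ centralizer ((P : Subgroup H) : Set H) := by
  intro hle
  have h1 := MonoidHom.not_dvd_card_ker_transferSylow P hle
  have h2 : (MonoidHom.transferSylow P hle).ker = ⊤ := by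
    rw [eq_top_iff, ← hS, closure_le]
    intro x hx
    show MonoidHom.transferSylow P hle x = 1
    have h3 : orderOf (MonoidHom.transferSylow P hle x) ∣ orderOf x := orderOf_map_dvd _ x
    obtain ⟨n, hn⟩ := (IsPGroup.iff_orderOf.1 P.isPGroup') (MonoidHom.transferSylow P hle x)
    rcases n with _ | n
    · rw [pow_zero, orderOf_eq_one_iff] at hn
      exact hn
    · exact absurd ((Dvd.intro_left _ (pow_succ p n).symm).trans (hn ▸ h3)) (hSp x hx)
  apply h1
  rw [h2, Subgroup.card_top]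
  exact hd

section Cnt

variable {G : Type u} [Group G] [Finite G] {p : ℕ} [hp : Fact p.Prime]

/-- **`cnt P (G ⧸ H) ≠ p - 1`** if `H` is generated by elements of order prime to `p`. -/
theorem cnt_ne_pred (P : Sylow p G) (hP : IsCyclic P) {H : Subgroup G} (h : ¬ p ∣ H.index) (hd : p ∣ Nat.card G)
    (S : Set G) (hS : closure S = H) (hSp : ∀ x ∈ S, ¬ p ∣ orderOf x) :
    cnt (P : Subgroup G) (G ⧸ H) ≠ p - 1 := by
  intro hcnt
  obtain ⟨Q, hQ⟩ := exists_sylow_le H h
  have hQc : IsCyclic Q := isCyclic_of_surjective _ (Sylow.equiv P Q).surjective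
  rw [cnt_conj P Q, cnt_eq_index Q hQ] at hcnt
  -- `|N : C|` divides `p - 1`
  have hb : (centralizer ((Q : Subgroup G) : Set G)).relIndex (normalizer ((Q : Subgroup G) : Set G)) ∣ p - 1 := by
    have hcomm : IsMulCommutative Q := IsCyclic.isMulCommutative (α := Q)
    have h2 := SmallSimple.BurnsideNC.coprime_relIndex Q hcomm
    have h3 := SmallSimple.BurnsideNC.relIndex_dvd_card_mulAut (Q : Subgroup G)
    have h4 := hQc.card_mulAut
    obtain ⟨n, hn⟩ := (IsPGroup.iff_card.1 Q.isPGroup')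
    rw [h4, hn] at h3
    rcases n with _ | n
    · rw [pow_zero, Nat.totient_one] at h3
      exact h3.trans (one_dvd _)
    · rw [Nat.totient_prime_pow_succ hp.out] at h3
      exact (Nat.Coprime.pow_right n h2.symm).dvd_of_dvd_mul_left h3
  have hpos : 0 < p - 1 := by have := hp.out.two_le; omega
  -- hence `N_H(Q) ≤ C(Q)`
  have hC : (centralizer ((Q : Subgroup G) : Set G)).subgroupOf (normalizer ((Q : Subgroup G) : Set G)) =
      DD (Q : Subgroup G) H := by
    have hle : (centralizer ((Q : Subgroup G) : Set G)).subgroupOf (normalizer ((Q : Subgroup G) : Set G)) ≤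
      DD (Q : Subgroup G) H := le_sup_right
    refine eq_of_le_of_card_ge hle ?_
    have h1 := Subgroup.card_mul_index
      ((centralizer ((Q : Subgroup G) : Set G)).subgroupOf (normalizer ((Q : Subgroup G) : Set G)))
    have h2 := Subgroup.card_mul_index (DD (Q : Subgroup G) H)
    rw [hcnt, ← h1] at h2
    have h3 : ((centralizer ((Q : Subgroup G) : Set G)).subgroupOf
      (normalizer ((Q : Subgroup G) : Set G))).index ≤ p - 1 := Nat.le_of_dvd hpos hb
    by_contra hcon
    push Not at hcon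
    have h4 : 0 < Nat.card ↥((centralizer ((Q : Subgroup G) : Set G)).subgroupOf
      (normalizer ((Q : Subgroup G) : Set G))) := Nat.card_pos
    nlinarith
  have hN : ∀ g ∈ H, g ∈ normalizer ((Q : Subgroup G) : Set G) → g ∈ centralizer ((Q : Subgroup G) : Set G) := by
    intro g hg hgN
    have h1 : (⟨g, hgN⟩ : normalizer ((Q : Subgroup G) : Set G)) ∈ DD (Q : Subgroup G) H :=
      (le_sup_left : H.subgroupOf _ ≤ DD (Q : Subgroup G) H) hg
    rw [← hC] at h1
    exact h1
  -- Burnside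
  have hdH : p ∣ Nat.card H := by
    rw [← H.card_mul_index] at hd
    exact (hp.out.dvd_mul.1 hd).resolve_right h
  have hSH : S ⊆ H := by rw [← hS]; exact subset_closure
  refine not_norm_le_cent (Q.subtype hQ) hdH ((↑) ⁻¹' S : Set H) ?_ ?_ ?_
  · rw [eq_top_iff]
    rintro ⟨g, hg⟩ -
    rw [← hS] at hg
    have key : ∀ x (hx : x ∈ closure S), (⟨x, hS ▸ hx⟩ : H) ∈ closure ((↑) ⁻¹' S : Set H) := by
      intro x hx
      induction hx using closure_induction with
      | mem x hx => exact subset_closure hx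
      | one => exact one_mem _
      | mul x y _ _ hx hy => exact mul_mem hx hy
      | inv x _ hx => exact inv_mem hx
    exact key g hg
  · intro x hx
    rw [← Subgroup.orderOf_coe]
    exact hSp _ hx
  · intro x hx
    have h1 : (x : G) ∈ normalizer ((Q : Subgroup G) : Set G) := by
      rw [mem_normalizer_iff] at hx ⊢
      intro y
      constructor
      · intro hy
        exact (hx ⟨y, hQ hy⟩).1 hy
      · intro hy
        have h2 : y ∈ H := by
          have h3 := mul_mem (mul_mem (inv_mem x.2) (hQ hy)) x.2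
          have h4 : (x : G)⁻¹ * (x * y * (x : G)⁻¹) * x = y := by group
          rwa [h4] at h3
        exact (hx ⟨y, h2⟩).2 hy
    have h2 := hN _ x.2 h1
    rw [mem_centralizer_iff] at h2 ⊢
    intro y hy
    exact Subtype.ext (h2 y hy)

end Cnt

section Par

open CoxeterSystem Cfsg.Agent.ChevalleyStructure.CoxeterGeom Cfsg.Agent.Tits.Roots Cfsg.Agent.Tits.Core
  Cfsg.Agent.Tits.RootComb Cfsg.Agent.Nodes.Reps Cfsg.Agent.Nodes.BNOf
  Cfsg.Agent.Nodes.StabComb Cfsg.Agent.Nodes.Bruhat Cfsg.Agent.Nodes.LeviDec Cfsg.Agent.Nodes.OppDec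
  Cfsg.Agent.Nodes.NormalForm Cfsg.Agent.KFacts.RgdOpp Cfsg.Agent.KFacts.RgdAut Cfsg.Agent.KFacts.RgdDiag

variable {I W Y : Type*} [Fintype I] [DecidableEq I] [Group W] [Group Y] {M : CoxeterMatrix I}
  {cs : CoxeterSystem M W} {A : I → I → ℤ} {h : IsCartan M A} {r : ℕ} {T : Subgroup Y} {n : I → Y}
  {X : (I → ℤ) → Subgroup Y} (R : RGD cs h r T n X)

include R in
theorem pgrp_neg (i : I) : IsPGroup r ↥(X (-sr i)) := by
  have h1 := R.conj i _ (isRoot_sr cs h i)
  rw [rep_simple_sr] at h1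
  rw [← h1]
  exact (R.pgrp i).map _

include R in
/-- **`cnt P (G ⧸ P_J) ≠ p - 1`** for `p ∤ |T|`. -/
theorem cnt_PJ_ne_pred [Finite W] [Finite Y] [hr : Fact r.Prime] (hG : GG cs h T X = ⊤) {p : ℕ} [hp : Fact p.Prime]
    (hpr : p ≠ r) (hT : ¬ p ∣ Nat.card ↥T) (hd : p ∣ Nat.card Y) (P : Sylow p Y) (hP : IsCyclic P)
    {J : Set I} (hJ : ¬ p ∣ (PJ cs h T X J).index) : cnt (P : Subgroup Y) (Y ⧸ PJ cs h T X J) ≠ p - 1 := by
  have hrg : ∀ {K : Subgroup Y}, IsPGroup r K → ∀ x ∈ K, ¬ p ∣ orderOf x := by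
    intro K hK x hx hdvd
    obtain ⟨m, hm⟩ := IsPGroup.iff_orderOf.1 hK ⟨x, hx⟩
    rw [← Subgroup.orderOf_coe] at hm
    rw [hm] at hdvd
    exact hpr ((Nat.prime_dvd_prime_iff_eq hp.out hr.out).1 (hp.out.dvd_of_dvd_pow hdvd))
  have hTo : ∀ x ∈ T, ¬ p ∣ orderOf x := by
    intro x hx hdvd
    apply hT
    have h1 : orderOf (⟨x, hx⟩ : T) ∣ Nat.card ↥T := orderOf_dvd_natCard _
    rw [← Subgroup.orderOf_coe] at h1
    exact hdvd.trans h1
  set S : Set Y := (T : Set Y) ∪ ((RGD.Sup X (RGD.Pos cs h) : Set Y) ∪ ⋃ i ∈ J, (X (-sr i) : Set Y)) with hS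
  have hBS : RGD.B cs h T X ≤ Subgroup.closure S := by
    refine sup_le (fun x hx => subset_closure (Or.inl hx)) fun x hx => subset_closure (Or.inr (Or.inl hx))
  refine cnt_ne_pred P hP hJ hd S ?_ ?_
  · apply le_antisymm
    · rw [closure_le]
      rintro x (hx | hx | hx)
      · exact B_le_PJ (RGD.T_le_B hx)
      · exact B_le_PJ (RGD.U_le_B hx)
      · simp only [Set.mem_iUnion] at hx
        obtain ⟨i, hi, hx⟩ := hx
        have h1 := R.conj i _ (isRoot_sr cs h i)
        rw [rep_simple_sr] at h1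
        rw [← h1] at hx
        obtain ⟨v, hv, rfl⟩ := hx
        have h2 : n i ∈ PJ cs h T X J := (H554.RG.n_mem_PJ_iff R).mpr hi
        exact mul_mem (mul_mem h2 (B_le_PJ (RGD.X_le_B (isRoot_sr cs h i) (sr_nonneg i) hv))) (inv_mem h2)
    · rw [← H116.RatB0.sup_eq_PJ R hG J, sup_le_iff]
      refine ⟨hBS, ?_⟩
      rw [closure_le]
      rintro _ ⟨i, hi, rfl⟩
      obtain ⟨v, hv, hv1⟩ := exists_ne_one R i
      have h1 := R.conj i _ (isRoot_sr cs h i)
      rw [rep_simple_sr] at h1
      have h2 : n i * v * (n i)⁻¹ ∈ X (-sr i) := by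
        rw [← h1]
        exact conj_mem_cj.2 hv
      obtain ⟨a, ha, t, ht, b, hb, e⟩ := R.rk1 i _ h2 (by
        intro h3
        apply hv1
        have h4 : n i * v = n i := by
          rw [mul_inv_eq_one] at h3
          exact h3
        exact mul_eq_left.1 h4)
      have hXB : ∀ x ∈ X (sr i), x ∈ Subgroup.closure S := by
        intro x hx
        exact hBS (RGD.X_le_B (isRoot_sr cs h i) (sr_nonneg i) hx)
      have h3 : n i = t⁻¹ * a⁻¹ * (n i * v * (n i)⁻¹) * b⁻¹ := by
        rw [e]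
        group
      show n i ∈ Subgroup.closure _
      rw [h3]
      refine mul_mem (mul_mem (mul_mem (inv_mem ?_) (inv_mem (hXB a ha))) ?_) (inv_mem (hXB b hb))
      · exact hBS (RGD.T_le_B ht)
      · refine subset_closure (Or.inr (Or.inr ?_))
        simp only [Set.mem_iUnion]
        exact ⟨i, hi, h2⟩
  · rintro x (hx | hx | hx)
    · exact hTo x hx
    · exact hrg R.isPGroup_Upos x hx
    · simp only [Set.mem_iUnion] at hx
      obtain ⟨i, hi, hx⟩ := hx
      exact hrg (pgrp_neg R i) x hx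

end Par

end Cfsg.Agent.H116.RatH
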